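import Cfsg.Agent.Lib.Helper3.Stcs6

set_option autoImplicit false
set_option maxRecDepth 100000

namespace Cfsg.Agent.Lib.Helper3.L211

open Cfsg.Agent.Lib.Helper11 Cfsg.Agent.Lib.Helper3

set_option maxHeartbeats 0

noncomputable def ntl : List (List (ℕ × ℕ)) := [[], [(0x3a, 8), (0x504, 4), (0x2001, 2), (0x4040, 1), (0x2000, 2), (0x404, 4), (0x30, 8)], [(0xd8, 8), (0x806, 4), (0x2122, 2), (0x1041, 1), (0x2020, 2), (0x406, 4), (0xda, 8)], [(0xda, 8), (0x406, 4), (0x2120, 2), (0x1041, 1), (0x2022, 2), (0x806, 4), (0xd8, 8)], [(0xd8, 8), (0x806, 4), (0x2122, 2), (0x1041, 1), (0x2020, 2), (0x406, 4), (0xda, 8)], [(0xda, 8), (0x406, 4), (0x2120, 2), (0x1041, 1), (0x2022, 2), (0x806, 4), (0xd8, 8)], [(0x5b, 8), (0xc00, 4), (0x2020, 2), (0x1105, 1), (0x2000, 2), (0x800, 4), (0x58, 8)], [(0x5b, 8), (0xc00, 4), (0x2020, 2), (0x1105, 1), (0x2000, 2), (0x800, 4), (0x58, 8)], [(0xa6, 8), (0x201, 4), (0x2310, 2), (0x404, 1), (0x202,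 2), (0xa00, 4), (0xa6, 8)], [(0xae, 8), (0xa0f, 4), (0x2121, 2), (0x140, 1), (0x0, 2), (0x20e, 4), (0xa4, 8)]]
noncomputable def INV : ℕ := 291617681509408
abbrev deg : ℕ := 12

theorem setup : NetSetup ntl deg 4 INV 9 where
  hok := by decide +kernel
  hstab := by decide +kernel
  hlen := by decide +kernel
  h0 := by decide +kernel
  hINV := by decide +kernel
  hINV0 := by decide +kernel
  htriv := by decide +kernel

end Cfsg.Agent.Lib.Helper3.L211
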