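import Cfsg.Agent.Lib.Helper3.L211a.Main
import Cfsg.Agent.Lib.Helper3.L211.Net
import Cfsg.Agent.Lib.Helper3.MatChk

set_option autoImplicit false
set_option maxRecDepth 100000

namespace Cfsg.Agent.Lib.Helper3.L211

open Cfsg.Agent.Lib.Helper11 Cfsg.Agent.Lib.Helper3 MulAction

set_option maxHeartbeats 0

theorem relsR : ∀ r ∈ L211a.RelAll, (r.map (vL ntl deg)).prod = 1 :=
  setup.rels_of_wordId L211a.RelAll (by decide +kernel)

theorem relsT : ∀ r ∈ L211a.RelAll, (r.map (vL L211a.ntl L211a.deg)).prod = 1 :=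
  L211a.setup.rels_of_wordId L211a.RelAll (by decide +kernel)

theorem INV_eq : INV = L211a.INV := by decide +kernel

theorem bd : Bd (fun l => (vL ntl deg l, vL L211a.ntl L211a.deg l)) [1, 2] 660 := by
  apply L211a.ubAll
  · rw [setup.v0, L211a.setup.v0]
    rfl
  · intro l
    have h1 := setup.vinv l
    rw [INV_eq] at h1
    rw [h1, L211a.setup.vinv l]
    rfl
  · intro r hr
    rw [prod_map_pair, relsR r hr, relsT r hr]
    rfl

theorem ne1 : vL ntl deg 1 ≠ 1 := by
  intro h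
  have h1 := setup.img_of_chk 1 0 6 (by norm_num [deg]) (by norm_num [deg]) (by decide +kernel)
  rw [h] at h1
  have := congrArg Fin.val h1
  simp at this

theorem iso : Nonempty (lgrp (vL ntl deg) [1, 2] ≃* lgrp (vL L211a.ntl L211a.deg) [1, 2]) :=
  iso_of_bd _ _ [1, 2] 660 bd L211a.card_eq L211a.simple ⟨1, by simp, ne1⟩

theorem simple : IsSimpleGroup (lgrp (vL ntl deg) [1, 2]) := by
  obtain ⟨e⟩ := iso
  exact e.isSimpleGroup_congr.2 L211a.simple

theorem card_eq : Nat.card (lgrp (vL ntl deg) [1, 2]) = 660 := by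
  obtain ⟨e⟩ := iso
  rw [Nat.card_congr e.toEquiv, L211a.card_eq]

end Cfsg.Agent.Lib.Helper3.L211
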