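import Cfsg.Agent.Lib.Helper3.L211.Bd
import Cfsg.Agent.Lib.Helper3.MatL2

set_option autoImplicit false
set_option maxRecDepth 100000

namespace Cfsg.Agent.Lib.Helper3.L211

open Cfsg.Agent.Lib.Helper11 Cfsg.Agent.Lib.Helper3 Matrix

set_option maxHeartbeats 0

instance factP : Fact (Nat.Prime 11) := ⟨by norm_num⟩

def AL : List (List (ZMod 11)) := [[8, 5], [9, 3]]
def BL : List (List (ZMod 11)) := [[3, 2], [2, 9]]
def frInvL : List (List (ZMod 11)) := [[3, 10], [9, 1]]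
def frAL : List (ZMod 11) := [10, 1]
def frBL : List ℕ := [3, 4]
def frI : Fin 12 := 0
def PT : ℕ := 0xa19181716151413121110110
def CS1 : ℕ := 0x394a52617285
def CS2 : ℕ := 0x1a8642597532
def IMG1 : ℕ := 0x351420a8b796
def IMG2 : ℕ := 0x562a4803719b
def pt (i : ℕ) : List (ZMod 11) := ptOf (fun x => (x : ZMod 11)) PT 4 2 i
def witJ : Fin 2 := 0
def witK : Fin 2 := 0

theorem chk1 : genChkW [AL] pt (fun i => (fun x => (x : ZMod 11)) (tb CS1 4 i)) (tb IMG1 4) ntl 1 12 := by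
  decide +kernel
theorem chk2 : genChkW [BL] pt (fun i => (fun x => (x : ZMod 11)) (tb CS2 4 i)) (tb IMG2 4) ntl 2 12 := by
  decide +kernel

end Cfsg.Agent.Lib.Helper3.L211
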