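import Cfsg.Agent.Lib.Helper3.L211.Mat
import Cfsg.Agent.S0243
import Cfsg.Prelude.Def_Classical

set_option autoImplicit false
set_option maxRecDepth 100000

namespace Cfsg.Agent.Lib.Helper3.L211

open Cfsg.Agent.Lib.Helper11 Cfsg.Agent.Lib.Helper3 Matrix

set_option maxHeartbeats 0

abbrev ee : Fin 2 ≃ Fin 2 := Equiv.refl _

abbrev SLd : Type := Matrix.SpecialLinearGroup (Fin 2) (ZMod 11)

theorem detA : (toM ee AL).det = 1 := by
  rw [Matrix.det_fin_two]
  decide +kernel

theorem detB : (toM ee BL).det = 1 := by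
  rw [Matrix.det_fin_two]
  decide +kernel

def gA : SLd := ⟨toM ee AL, detA⟩
def gB : SLd := ⟨toM ee BL, detB⟩

def TT : SLd →* Matrix (Fin 2) (Fin 2) (ZMod 11) := Cfsg.slToMat 2 (ZMod 11)

theorem TT_inj : Function.Injective TT := by
  intro x y h
  apply Matrix.SpecialLinearGroup.ext
  intro i j
  exact congrFun (congrFun h i) j

def vM (l : ℕ) : SLd := if l = 1 then gA else if l = 2 then gB else 1

theorem card_psl : Nat.card (Matrix.ProjectiveSpecialLinearGroup (Fin 2) (ZMod 11)) = 660 := by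
  have h := Cfsg.Agent.S0243.result (F := ZMod 11) (q := 11) (by simp) 2 (by norm_num)
  have h2 : (∏ i : Fin 2, (11 ^ 2 - 11 ^ (i : ℕ))) = 13200 := by decide
  rw [h2] at h
  have h3 : Nat.gcd 2 (11 - 1) = 2 := by decide
  rw [h3] at h
  omega

def pp : Fin 12 → Fin 2 → ZMod 11 := fun i => toV ee (pt i)

def frB : Fin 2 → Fin 12 := fun k => ⟨frBL.getD k 0 % 12, Nat.mod_lt _ (by norm_num)⟩

theorem ncOK : (mvW [AL, BL] (basL 2 witJ)).getD witK 0 ≠ (mvW [BL, AL] (basL 2 witJ)).getD witK 0 := by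
  decide +kernel

theorem psl_iso : Nonempty (Matrix.ProjectiveSpecialLinearGroup (Fin 2) (ZMod 11) ≃*
    lgrp (vL ntl deg) [1, 2]) := by
  apply quot_iso_of_graph (projGraph TT pp) (Subgroup.center SLd)
    _ vM (vL ntl deg) [1, 2] _ simple 660 card_eq card_psl (by norm_num)
  · refine ⟨1, by simp, ?_⟩
    intro h
    have h1 := (Subgroup.mem_center_iff.1 h) gB
    have h2 : TT (gB * gA) = TT (gA * gB) := congrArg TT h1
    have h3 : TT (gA * gB) = ([AL, BL].map (toM ee)).prod := by simp; rfl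
    have h4 : TT (gB * gA) = ([BL, AL].map (toM ee)).prod := by simp; rfl
    rw [h3, h4] at h2
    exact prod_toM_ne ee _ _ (by decide) (by decide) witJ witK ncOK h2.symm
  · intro g hg
    obtain ⟨c0, hc⟩ := scalar_of_projGraph TT pp frB frI (toM ee frInvL) (toV ee frAL)
      (by decide +kernel) (by decide +kernel) (by decide +kernel) g hg
    exact mem_center_of_scalar TT TT_inj g c0 hc
  · intro x hx
    simp only [List.mem_cons, List.mem_nil_iff, or_false] at hx
    rcases hx with rfl | rfl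
    · exact setup.mem_projGraph_of_chkW TT gA ee [AL] (by decide) (by simp; rfl) pt
        (fun i => ptOf_length _ _ _ _ _) _ _ 1 chk1
    · exact setup.mem_projGraph_of_chkW TT gB ee [BL] (by decide) (by simp; rfl) pt
        (fun i => ptOf_length _ _ _ _ _) _ _ 2 chk2

end Cfsg.Agent.Lib.Helper3.L211
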